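import Mathlib
import Cfsg.Agent.Helper1.Frob

/-!
Helper library (helper21): constructing Frobenius groups from fixed-point-free actions.

* `frob_iff`: elementwise form of `Cfsg.IsFrobeniusComplement`.
* `frobComplement_map`: transport along a group isomorphism.
* `frob_transport`: a Frobenius complement in a finite group of any universe can be realised
  in a group living in `Type`.
* `frob_of_fpf`: a fixed-point-free action `φ : H →* MulAut N` of a nontrivial finite group on
  a nontrivial finite group gives a Frobenius group `N ⋊ H` (in `Type`) with complement `≃* H`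
  and kernel of cardinality `Nat.card N`.
* `frob_of_fpf_add`: additive version (`φ : H →* AddAut V`).
-/

set_option autoImplicit false

namespace Cfsg.Agent.Helper21

open Cfsg

theorem frob_iff {G : Type*} [Group G] (H : Subgroup G) :
    Cfsg.IsFrobeniusComplement H ↔
      H ≠ ⊥ ∧ H ≠ ⊤ ∧ ∀ g : G, g ∉ H → ∀ x : G, x ∈ H → g⁻¹ * x * g ∈ H → x = 1 := by
  constructor
  · intro h
    exact ⟨h.1, h.2.1, Cfsg.Agent.Helper1.frob_elt H h⟩
  · rintro ⟨h1, h2, h3⟩
    refine ⟨h1, h2, fun g hg => ?_⟩
    rw [eq_bot_iff]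
    intro x hx
    rw [Subgroup.mem_inf] at hx
    rw [Subgroup.mem_bot]
    exact h3 g hg x hx.1 ((Cfsg.Agent.Helper1.mem_conj_smul_iff g x H).mp hx.2)

theorem frobComplement_map {G G' : Type*} [Group G] [Group G'] (e : G ≃* G') (H : Subgroup G)
    (hH : Cfsg.IsFrobeniusComplement H) :
    Cfsg.IsFrobeniusComplement (H.map e.toMonoidHom) := by
  rw [frob_iff] at hH ⊢
  obtain ⟨h1, h2, h3⟩ := hH
  refine ⟨?_, ?_, ?_⟩
  · intro h
    exact h1 ((Subgroup.map_eq_bot_iff_of_injective H e.injective).mp h)
  · intro h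
    apply h2
    rw [eq_top_iff]
    intro x _
    have hx : e x ∈ H.map e.toMonoidHom := by rw [h]; trivial
    obtain ⟨y, hy, hyx⟩ := hx
    have : y = x := e.injective hyx
    rw [← this]; exact hy
  · intro g hg x hx hgx
    obtain ⟨y, hy, rfl⟩ := hx
    obtain ⟨g0, rfl⟩ := e.surjective g
    have hg0 : g0 ∉ H := fun h => hg ⟨g0, h, rfl⟩
    have h4 : g0⁻¹ * y * g0 ∈ H := by
      obtain ⟨w, hw, hwe⟩ := hgx
      have e1 : e.toMonoidHom w = e (g0⁻¹ * y * g0) := by
        rw [hwe]; simp
      have : w = g0⁻¹ * y * g0 := e.injective e1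
      rw [← this]; exact hw
    have := h3 g0 hg0 y hy h4
    rw [this]; simp

theorem frob_transport {L₀ : Type*} [Group L₀] [Finite L₀] (C₀ : Subgroup L₀)
    (hC : Cfsg.IsFrobeniusComplement C₀) :
    ∃ (L : Type) (_ : Group L) (_ : Finite L) (C : Subgroup L),
      Cfsg.IsFrobeniusComplement C ∧ Nonempty (C₀ ≃* C) ∧
      Nat.card (Cfsg.frobeniusKernel C) = Nat.card (Cfsg.frobeniusKernel C₀) := by
  obtain ⟨em⟩ : Nonempty (L₀ ≃* Shrink.{0} L₀) := ⟨(Shrink.mulEquiv.{0} (α := L₀)).symm⟩
  have hC' := frobComplement_map em C₀ hC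
  refine ⟨Shrink.{0} L₀, inferInstance, inferInstance,
    C₀.map em.toMonoidHom, hC', ⟨em.subgroupMap C₀⟩, ?_⟩
  rw [Cfsg.Agent.Helper1.card_kernel _ hC', Cfsg.Agent.Helper1.card_kernel _ hC]
  exact Subgroup.index_map_equiv C₀ em

theorem frob_of_fpf {N H : Type*} [Group N] [Group H] [Finite N] [Finite H] [Nontrivial N]
    [Nontrivial H] (φ : H →* MulAut N)
    (hfpf : ∀ h : H, h ≠ 1 → ∀ x : N, φ h x = x → x = 1) :
    ∃ (L : Type) (_ : Group L) (_ : Finite L) (C : Subgroup L),
      Cfsg.IsFrobeniusComplement C ∧ Nonempty (H ≃* C) ∧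
      Nat.card (Cfsg.frobeniusKernel C) = Nat.card N := by
  haveI : Finite (N ⋊[φ] H) := Finite.of_equiv _ SemidirectProduct.equivProd.symm
  have hmem : ∀ g : N ⋊[φ] H, g ∈ (SemidirectProduct.inr : H →* N ⋊[φ] H).range ↔ g.left = 1 := by
    intro g
    constructor
    · rintro ⟨h, rfl⟩
      rfl
    · intro hg
      refine ⟨g.right, ?_⟩
      apply SemidirectProduct.ext
      · rw [hg]; rfl
      · rfl
  have hC : Cfsg.IsFrobeniusComplement (SemidirectProduct.inr : H →* N ⋊[φ] H).range := by
    rw [frob_iff]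
    refine ⟨?_, ?_, ?_⟩
    · obtain ⟨h, hh⟩ := exists_ne (1 : H)
      intro hbot
      have h1 : (SemidirectProduct.inr h : N ⋊[φ] H) ∈
          (SemidirectProduct.inr : H →* N ⋊[φ] H).range := ⟨h, rfl⟩
      rw [hbot, Subgroup.mem_bot] at h1
      apply hh
      apply SemidirectProduct.inr_injective (φ := φ)
      rw [h1, map_one]
    · obtain ⟨x, hx⟩ := exists_ne (1 : N)
      intro htop
      have h1 : (SemidirectProduct.inl x : N ⋊[φ] H) ∈
          (SemidirectProduct.inr : H →* N ⋊[φ] H).range := by rw [htop]; trivial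
      rw [hmem] at h1
      exact hx h1
    · intro g hg y hy hgy
      rw [hmem] at hg hy hgy
      have hyr : y = SemidirectProduct.inr y.right := by
        apply SemidirectProduct.ext
        · rw [hy]; rfl
        · rfl
      have e1 : (g⁻¹ * y * g).left = φ g.right⁻¹ (g.left⁻¹ * φ y.right g.left) := by
        simp only [SemidirectProduct.mul_left, SemidirectProduct.inv_left,
          SemidirectProduct.mul_right, SemidirectProduct.inv_right, hy, map_one, mul_one,
          map_mul, MulAut.mul_apply, map_inv]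
      rw [e1] at hgy
      have e2 : g.left⁻¹ * φ y.right g.left = 1 := by
        have := congrArg (φ g.right) hgy
        simpa using this
      have e3 : φ y.right g.left = g.left := by
        rw [inv_mul_eq_one] at e2
        exact e2.symm
      by_contra hy1
      have hyr1 : y.right ≠ 1 := by
        intro h
        apply hy1
        rw [hyr, h, map_one]
      exact hg (hfpf y.right hyr1 g.left e3)
  obtain ⟨L, iG, iF, C, hCf, ⟨eC⟩, hcard⟩ := frob_transport _ hC
  refine ⟨L, iG, iF, C, hCf, ⟨(MonoidHom.ofInjective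
    (SemidirectProduct.inr_injective (φ := φ))).trans eC⟩, ?_⟩
  rw [hcard, Cfsg.Agent.Helper1.card_kernel _ hC]
  have h1 := Subgroup.index_mul_card (SemidirectProduct.inr : H →* N ⋊[φ] H).range
  rw [SemidirectProduct.card] at h1
  have h2 : Nat.card (SemidirectProduct.inr : H →* N ⋊[φ] H).range = Nat.card H :=
    (Nat.card_congr (MonoidHom.ofInjective
      (SemidirectProduct.inr_injective (φ := φ))).toEquiv).symm
  rw [h2] at h1
  exact Nat.eq_of_mul_eq_mul_right Nat.card_pos h1

theorem frob_of_fpf_add {V H : Type*} [AddCommGroup V] [Group H] [Finite V] [Finite H]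
    [Nontrivial V] [Nontrivial H] [DistribMulAction H V]
    (hfpf : ∀ h : H, h ≠ 1 → ∀ v : V, h • v = v → v = 0) :
    ∃ (L : Type) (_ : Group L) (_ : Finite L) (C : Subgroup L),
      Cfsg.IsFrobeniusComplement C ∧ Nonempty (H ≃* C) ∧
      Nat.card (Cfsg.frobeniusKernel C) = Nat.card V := by
  have h := frob_of_fpf (N := Multiplicative V)
    ((MulAutMultiplicative V).symm.toMonoidHom.comp (DistribMulAction.toAddAut H V)) (by
      intro h hh x hx
      have h1 : h • Multiplicative.toAdd x = Multiplicative.toAdd x :=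
        congrArg Multiplicative.toAdd hx
      have := hfpf h hh (Multiplicative.toAdd x) h1
      exact Multiplicative.toAdd.injective this)
  exact h

/-- matrix version: a homomorphism into `GL n R` (finite nontrivial commutative ring `R`) all of
whose nonidentity values have no nonzero fixed vector. -/
theorem frob_of_matrix {H : Type*} [Group H] [Finite H] [Nontrivial H] {n : Type*} [Fintype n]
    [DecidableEq n] [Nonempty n] {R : Type*} [CommRing R] [Finite R] [Nontrivial R]
    (f : H →* (Matrix n n R)ˣ)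
    (hfpf : ∀ h : H, h ≠ 1 → ∀ v : n → R, Matrix.mulVec (f h : Matrix n n R) v = v → v = 0) :
    ∃ (L : Type) (_ : Group L) (_ : Finite L) (C : Subgroup L),
      Cfsg.IsFrobeniusComplement C ∧ Nonempty (H ≃* C) ∧
      Nat.card (Cfsg.frobeniusKernel C) = Nat.card (n → R) := by
  letI : DistribMulAction H (n → R) := DistribMulAction.compHom (n → R) f
  exact frob_of_fpf_add (V := n → R) (H := H) (fun h hh v hv => hfpf h hh v hv)

end Cfsg.Agent.Helper21
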