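import Mathlib
import Cfsg.Agent.Helper24.CharCliff
import Cfsg.Agent.Helper24.Coh2
import Cfsg.Agent.Helper5.DetChar
import Cfsg.Agent.Helper22.Ito

/-!
# Going down through an abelian chief factor (Isaacs 6.18)

`core`: `N ⊴ Γ` with `Γ/N` abelian, `ϑ ∈ Irr(Γ)` invariant under a set `A` of automorphisms of
`Γ` preserving `N`, such that the only `A`-invariant subgroups between `N` and `Γ` are `N` and `Γ`.
Then `ϑ_N` is irreducible, or `e φ` with `e² = |Γ:N|`, or a sum of `|Γ:N|` distinct irreducibles.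
-/

set_option autoImplicit false

namespace Cfsg.Agent.Helper21.GoDown

open Cfsg Cfsg.Agent.Helper24

universe u

section dual

variable {A : Type*} [CommGroup A] [Finite A] [Fintype (A →* ℂˣ)]

theorem dual_sum_one : ∑ l : A →* ℂˣ, ((l (1 : A) : ℂˣ) : ℂ) = (Nat.card A : ℂ) := by
  simp only [map_one, Units.val_one, Finset.sum_const, Finset.card_univ, nsmul_eq_mul, mul_one]
  rw [← Nat.card_eq_fintype_card, CommGroup.card_monoidHom_of_hasEnoughRootsOfUnity A ℂ]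

theorem dual_sum_ne {a : A} (ha : a ≠ 1) : ∑ l : A →* ℂˣ, ((l a : ℂˣ) : ℂ) = 0 := by
  classical
  obtain ⟨μ, hμ⟩ := CommGroup.exists_apply_ne_one_of_hasEnoughRootsOfUnity A ℂ ha
  have h1 : ∑ l : A →* ℂˣ, ((l a : ℂˣ) : ℂ) =
      ((μ a : ℂˣ) : ℂ) * ∑ l : A →* ℂˣ, ((l a : ℂˣ) : ℂ) := by
    rw [Finset.mul_sum]
    exact (Fintype.sum_equiv (Equiv.mulLeft μ) (fun l => ((μ a : ℂˣ) : ℂ) * ((l a : ℂˣ) : ℂ))
      (fun l => ((l a : ℂˣ) : ℂ)) (fun l => by simp [MonoidHom.mul_apply])).symm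
  have h2 : ((μ a : ℂˣ) : ℂ) ≠ 1 := fun h => hμ (Units.ext h)
  have h3 : (1 - ((μ a : ℂˣ) : ℂ)) * ∑ l : A →* ℂˣ, ((l a : ℂˣ) : ℂ) = 0 := by
    linear_combination h1
  rcases mul_eq_zero.mp h3 with h | h
  · exact absurd (sub_eq_zero.mp h).symm h2
  · exact h

end dual

section gen

variable {X : Type u} [Group X] [Fintype X]

/-- Norm of `e` times a sum of distinct irreducible characters. -/
theorem norm_smul_sum (e : ℕ) (C : Finset (X → ℂ)) (hC : ∀ ψ ∈ C, IsIrrCharacter X ψ) :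
    classInner ((e : ℂ) • ∑ ψ ∈ C, ψ) ((e : ℂ) • ∑ ψ ∈ C, ψ) = ((e ^ 2 * C.card : ℕ) : ℂ) := by
  classical
  rw [classInner_smul_left, classInner_smul_right, Complex.conj_natCast, classInner_sum_left]
  have h1 : ∀ ψ ∈ C, classInner ψ (∑ ψ' ∈ C, ψ') = 1 := by
    intro ψ hψ
    rw [classInner_sum_right, Finset.sum_eq_single_of_mem ψ hψ]
    · exact irr_inner_self (⟨ψ, hC ψ hψ⟩ : IrrCharacter X)
    · intro ψ' hψ' hne
      exact irr_inner_ne (χ := (⟨ψ, hC ψ hψ⟩ : IrrCharacter X)) (ψ := ⟨ψ', hC ψ' hψ'⟩)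
        (fun h => hne (congrArg Subtype.val h).symm)
  rw [Finset.sum_congr rfl h1]
  simp only [Finset.sum_const, nsmul_eq_mul, mul_one]
  push_cast
  ring

end gen

section core

variable {Γ : Type u} [Group Γ] [Fintype Γ] (N : Subgroup Γ) [hN : N.Normal] [Fintype N]
  (ϑ : Γ → ℂ)

omit hN in
theorem norm_split (hϑ : IsIrrCharacter Γ ϑ) :
    ∃ R : ℝ, 0 ≤ R ∧
      (Nat.card N : ℂ) * classInner (fun n : N => ϑ n) (fun n : N => ϑ n) + (R : ℂ) =
        (Nat.card Γ : ℂ) ∧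
      ((∀ x : Γ, x ∉ N → ϑ x = 0) → R = 0) := by
  classical
  refine ⟨∑ x ∈ Finset.univ.filter (fun x : Γ => x ∉ N), Complex.normSq (ϑ x),
    Finset.sum_nonneg (fun x _ => Complex.normSq_nonneg _), ?_, ?_⟩
  · have h1 : classInner ϑ ϑ = 1 := irr_inner_self (⟨ϑ, hϑ⟩ : IrrCharacter Γ)
    rw [classInner_def'] at h1
    have hΓ : (Nat.card Γ : ℂ) ≠ 0 := Nat.cast_ne_zero.mpr Nat.card_pos.ne'
    have hNne : (Nat.card N : ℂ) ≠ 0 := Nat.cast_ne_zero.mpr Nat.card_pos.ne'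
    have h2 : ∑ g : Γ, ϑ g * starRingEnd ℂ (ϑ g) = (Nat.card Γ : ℂ) := by
      have h3 : (Nat.card Γ : ℂ) * ((Nat.card Γ : ℂ)⁻¹ * ∑ g : Γ, ϑ g * starRingEnd ℂ (ϑ g)) =
          (Nat.card Γ : ℂ) * 1 := by rw [h1]
      rw [← mul_assoc, mul_inv_cancel₀ hΓ, one_mul, mul_one] at h3
      exact h3
    have h4 : ∑ g : Γ, ϑ g * starRingEnd ℂ (ϑ g) =
        ∑ n : N, ϑ n * starRingEnd ℂ (ϑ n) +
          ((∑ x ∈ Finset.univ.filter (fun x : Γ => x ∉ N), Complex.normSq (ϑ x) : ℝ) : ℂ) := by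
      rw [← Finset.sum_filter_add_sum_filter_not Finset.univ (fun x : Γ => x ∈ N)]
      congr 1
      · exact Finset.sum_subtype (Finset.univ.filter (fun x : Γ => x ∈ N)) (fun x => by simp)
          (fun x => ϑ x * starRingEnd ℂ (ϑ x))
      · rw [Complex.ofReal_sum]
        exact Finset.sum_congr rfl (fun x _ => Complex.mul_conj _)
    rw [classInner_def', ← mul_assoc, mul_inv_cancel₀ hNne, one_mul, ← h4, h2]
  · intro hv
    apply Finset.sum_eq_zero
    intro x hx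
    rw [Finset.mem_filter] at hx
    rw [hv x hx.2, map_zero]

/-- Clifford's theorem with a `Finset` of conjugates. -/
theorem clifford_finset (hϑ : IsIrrCharacter Γ ϑ) :
    ∃ (φ : N → ℂ) (e : ℕ) (C : Finset (N → ℂ)), IsIrrCharacter N φ ∧ e ≠ 0 ∧
      (∀ ψ, ψ ∈ C ↔ ∃ g : Γ, ψ = twist N φ g) ∧
      (fun n : N => ϑ n) = (e : ℂ) • ∑ ψ ∈ C, ψ ∧
      classInner (fun n : N => ϑ n) φ = (e : ℂ) := by
  classical
  have hϑc := isCharacter_of_isIrrCharacter hϑ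
  have hres : IsCharacter N (fun n : N => ϑ n) := isCharacter_restrict N hϑc
  have h1 : (fun n : N => ϑ n) 1 ≠ 0 := irr_one_ne_zero (⟨ϑ, hϑ⟩ : IrrCharacter Γ)
  obtain ⟨φ, hφ⟩ := Cfsg.Agent.Helper22.exists_irr_constituent hres h1
  obtain ⟨e, he⟩ := isCharacter_inner_irr hres φ
  have hcl := clifford_restrict N hN ϑ hϑ (φ : N → ℂ) φ.2 hφ
  have hfin : {φ' : N → ℂ | ∃ g : Γ, φ' = twist N (φ : N → ℂ) g}.Finite := by
    have : {φ' : N → ℂ | ∃ g : Γ, φ' = twist N (φ : N → ℂ) g} =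
        Set.range (fun g : Γ => twist N (φ : N → ℂ) g) := by
      ext φ'; constructor
      · rintro ⟨g, rfl⟩; exact ⟨g, rfl⟩
      · rintro ⟨g, rfl⟩; exact ⟨g, rfl⟩
    rw [this]; exact Set.finite_range _
  have hcl2 : (fun n : N => ϑ n) = classInner (fun n : N => ϑ n) (φ : N → ℂ) •
      ∑ φ' ∈ hfin.toFinset, φ' := by
    rw [← finsum_mem_eq_finite_toFinset_sum _ hfin]; exact hcl
  refine ⟨φ, e, hfin.toFinset, φ.2, ?_, ?_, ?_, he⟩
  · intro h0
    apply hφ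
    rw [he, h0, Nat.cast_zero]
  · intro ψ
    rw [Set.Finite.mem_toFinset]
    rfl
  · rw [← he]
    exact hcl2

/-- The inertia group of `φ`. -/
noncomputable def inertia (φ : N → ℂ) : Subgroup Γ where
  carrier := {g | twist N φ g = φ}
  mul_mem' := by
    intro a b ha hb
    show twist N φ (a * b) = φ
    rw [twist_mul, show twist N φ a = φ from ha]
    exact hb
  one_mem' := by
    show twist N φ 1 = φ
    funext n
    show φ ⟨1 * n * 1⁻¹, _⟩ = φ n
    congr 1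
    apply Subtype.ext
    simp
  inv_mem' := by
    intro a ha
    show twist N φ a⁻¹ = φ
    have h := twist_mul N φ a a⁻¹
    rw [show twist N φ a = φ from ha] at h
    rw [← h]
    funext n
    show φ ⟨(a * a⁻¹) * n * (a * a⁻¹)⁻¹, _⟩ = φ n
    congr 1
    apply Subtype.ext
    simp

omit [Fintype Γ] [Fintype N] in
theorem le_inertia (φ : N → ℂ) (hφ : IsIrrCharacter N φ) : N ≤ inertia N φ := by
  intro n hn
  show twist N φ n = φ
  funext m
  exact irr_conj (⟨φ, hφ⟩ : IrrCharacter N) m ⟨n, hn⟩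

omit [Fintype Γ] [Fintype N] in
theorem twist_one (φ : N → ℂ) : twist N φ 1 = φ := (inertia N φ).one_mem

theorem inertia_invariant (hab : ∀ x y : Γ, x * y * x⁻¹ * y⁻¹ ∈ N) (φ : N → ℂ)
    (hφ : IsIrrCharacter N φ) (e : ℕ) (he : e ≠ 0) (C : Finset (N → ℂ))
    (hC : ∀ ψ, ψ ∈ C ↔ ∃ g : Γ, ψ = twist N φ g)
    (hres : (fun n : N => ϑ n) = (e : ℂ) • ∑ ψ ∈ C, ψ)
    (hinnerφ : classInner (fun n : N => ϑ n) φ = (e : ℂ))
    (a : Γ ≃* Γ) (haN : ∀ n ∈ N, a n ∈ N) (haϑ : ∀ x, ϑ (a x) = ϑ x)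
    (t : Γ) (ht : t ∈ inertia N φ) : a t ∈ inertia N φ := by
  classical
  obtain ⟨f, hf_coe⟩ : ∃ f : N →* N, ∀ n : N, ((f n : N) : Γ) = a n :=
    ⟨((a : Γ →* Γ).comp N.subtype).codRestrict N (fun n => haN n n.2), fun n => rfl⟩
  have hinj : Function.Injective f := by
    intro x y hxy
    apply Subtype.ext
    apply a.injective
    rw [← hf_coe, ← hf_coe, hxy]
  have hsurj : Function.Surjective f := Finite.surjective_of_injective hinj
  have hφa : IsIrrCharacter N (fun n => φ (f n)) := isIrrCharacter_comp_surj f hsurj φ hφ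
  have hinner : classInner (fun n : N => ϑ n) (fun n => φ (f n)) =
      classInner (fun n : N => ϑ n) φ := by
    rw [classInner_def', classInner_def']
    congr 1
    refine Fintype.sum_equiv (Equiv.ofBijective f ⟨hinj, hsurj⟩) _ _ (fun n => ?_)
    show ϑ n * starRingEnd ℂ (φ (f n)) = ϑ ((f n : N) : Γ) * starRingEnd ℂ (φ (f n))
    rw [hf_coe, haϑ]
  have hmemC : (fun n => φ (f n)) ∈ C := by
    by_contra hnot
    have hz : ∀ ψ ∈ C, classInner ψ (fun n => φ (f n)) = 0 := by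
      intro ψ hψ
      obtain ⟨g, rfl⟩ := (hC ψ).mp hψ
      exact irr_inner_ne (χ := (⟨twist N φ g, isIrrCharacter_twist N φ hφ g⟩ : IrrCharacter N))
        (ψ := ⟨_, hφa⟩) (fun h => hnot (by
          have h' : twist N φ g = (fun n => φ (f n)) := congrArg Subtype.val h
          rw [← h']
          exact hψ))
    have h0 : classInner (fun n : N => ϑ n) (fun n => φ (f n)) = 0 := by
      rw [hres, classInner_smul_left, classInner_sum_left, Finset.sum_eq_zero hz, mul_zero]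
    rw [hinner, hinnerφ] at h0
    exact he (by exact_mod_cast h0)
  obtain ⟨k₀, hk₀⟩ := (hC _).mp hmemC
  have key1 : ∀ (m : Γ) (hm : m ∈ N),
      φ ⟨a m, haN m hm⟩ = φ ⟨k₀ * m * k₀⁻¹, hN.conj_mem m hm k₀⟩ := by
    intro m hm
    have h := congrFun hk₀ ⟨m, hm⟩
    have e1 : f ⟨m, hm⟩ = ⟨a m, haN m hm⟩ := Subtype.ext (hf_coe ⟨m, hm⟩)
    rw [← e1]
    exact h
  have key2 : ∀ (m : Γ) (hm : m ∈ N), φ ⟨t * m * t⁻¹, hN.conj_mem m hm t⟩ = φ ⟨m, hm⟩ := by
    intro m hm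
    exact congrFun (show twist N φ t = φ from ht) ⟨m, hm⟩
  have key3 : ∀ (c y : Γ) (hc : c ∈ N) (hy : y ∈ N),
      φ ⟨c * y * c⁻¹, hN.conj_mem y hy c⟩ = φ ⟨y, hy⟩ := by
    intro c y hc hy
    exact irr_conj (⟨φ, hφ⟩ : IrrCharacter N) ⟨y, hy⟩ ⟨c, hc⟩
  show twist N φ (a t) = φ
  funext n
  obtain ⟨m, hm⟩ := hsurj n
  have hnm : (n : Γ) = a m := by rw [← hm, hf_coe]
  have e1 : a t * (n : Γ) * (a t)⁻¹ = a (t * m * t⁻¹) := by
    rw [hnm, map_mul, map_mul, map_inv]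
  have hmem1 : t * (m : Γ) * t⁻¹ ∈ N := hN.conj_mem m m.2 t
  have hmem2 : k₀ * (m : Γ) * k₀⁻¹ ∈ N := hN.conj_mem m m.2 k₀
  have hc : k₀ * t * k₀⁻¹ * t⁻¹ ∈ N := hab k₀ t
  have e2 : k₀ * (t * (m : Γ) * t⁻¹) * k₀⁻¹ =
      (k₀ * t * k₀⁻¹ * t⁻¹) * (t * (k₀ * (m : Γ) * k₀⁻¹) * t⁻¹) * (k₀ * t * k₀⁻¹ * t⁻¹)⁻¹ := by
    group
  calc twist N φ (a t) n
      = φ ⟨a t * n * (a t)⁻¹, hN.conj_mem n n.2 (a t)⟩ := rfl
    _ = φ ⟨a (t * m * t⁻¹), haN _ hmem1⟩ := congrArg φ (Subtype.ext e1)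
    _ = φ ⟨k₀ * (t * m * t⁻¹) * k₀⁻¹, hN.conj_mem _ hmem1 k₀⟩ := key1 _ hmem1
    _ = φ ⟨(k₀ * t * k₀⁻¹ * t⁻¹) * (t * (k₀ * (m : Γ) * k₀⁻¹) * t⁻¹) *
          (k₀ * t * k₀⁻¹ * t⁻¹)⁻¹, hN.conj_mem _ (hN.conj_mem _ hmem2 t) _⟩ :=
        congrArg φ (Subtype.ext e2)
    _ = φ ⟨t * (k₀ * (m : Γ) * k₀⁻¹) * t⁻¹, hN.conj_mem _ hmem2 t⟩ := key3 _ _ hc _
    _ = φ ⟨k₀ * (m : Γ) * k₀⁻¹, hmem2⟩ := key2 _ hmem2
    _ = φ ⟨a m, haN m m.2⟩ := (key1 m m.2).symm
    _ = φ n := congrArg φ (Subtype.ext hnm.symm)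

theorem card_orbit (φ : N → ℂ) (C : Finset (N → ℂ))
    (hC : ∀ ψ, ψ ∈ C ↔ ∃ g : Γ, ψ = twist N φ g) (hT : inertia N φ = N) :
    C.card * Nat.card N = Nat.card Γ := by
  classical
  have h1 : (Finset.univ : Finset Γ).card =
      ∑ b ∈ C, (Finset.univ.filter (fun g : Γ => twist N φ g = b)).card :=
    Finset.card_eq_sum_card_fiberwise (fun g _ => Finset.mem_coe.mpr ((hC _).mpr ⟨g, rfl⟩))
  have h2 : ∀ b ∈ C, (Finset.univ.filter (fun g : Γ => twist N φ g = b)).card = Nat.card N := by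
    intro b hb
    obtain ⟨g₀, rfl⟩ := (hC b).mp hb
    rw [Nat.card_eq_fintype_card, Fintype.card_subtype]
    apply Finset.card_bij (fun g _ => g * g₀⁻¹)
    · intro g hg
      rw [Finset.mem_filter] at hg ⊢
      refine ⟨Finset.mem_univ _, ?_⟩
      rw [← hT]
      show twist N φ (g * g₀⁻¹) = φ
      rw [twist_mul, hg.2, ← twist_mul, mul_inv_cancel]
      exact twist_one N φ
    · intro g₁ _ g₂ _ h
      exact mul_right_cancel h
    · intro n hn
      rw [Finset.mem_filter] at hn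
      refine ⟨n * g₀, ?_, mul_inv_cancel_right n g₀⟩
      rw [Finset.mem_filter]
      refine ⟨Finset.mem_univ _, ?_⟩
      have h3 : twist N φ n = φ := by
        have h4 : n ∈ inertia N φ := by rw [hT]; exact hn.2
        exact h4
      rw [twist_mul, h3]
  rw [Finset.sum_congr rfl h2, Finset.sum_const, smul_eq_mul, Finset.card_univ,
    ← Nat.card_eq_fintype_card] at h1
  exact h1.symm

omit hN in
/-- The dual-group computation: if the support of `ϑ` together with `N` generates `Γ`, then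
`ϑ_N` has norm one. -/
theorem norm_one_of_gen {Q : Type*} [CommGroup Q] [Finite Q] [Fintype (Q →* ℂˣ)] (π : Γ →* Q)
    (hπ : Function.Surjective π) (hker : ∀ x, π x = 1 ↔ x ∈ N)
    (hcard : Nat.card Q * Nat.card N = Nat.card Γ) (hϑ : IsIrrCharacter Γ ϑ)
    (hgen : Subgroup.closure ({x : Γ | ϑ x ≠ 0} ∪ (N : Set Γ)) = ⊤) :
    classInner (fun n : N => ϑ n) (fun n : N => ϑ n) = 1 := by
  classical
  have hx : ∀ x : Γ, ∑ l : Q →* ℂˣ, ((l (π x) : ℂˣ) : ℂ) * ϑ x * starRingEnd ℂ (ϑ x) =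
      if x ∈ N then (Nat.card Q : ℂ) * (ϑ x * starRingEnd ℂ (ϑ x)) else 0 := by
    intro x
    have h0 : ∑ l : Q →* ℂˣ, ((l (π x) : ℂˣ) : ℂ) * ϑ x * starRingEnd ℂ (ϑ x) =
        (∑ l : Q →* ℂˣ, ((l (π x) : ℂˣ) : ℂ)) * (ϑ x * starRingEnd ℂ (ϑ x)) := by
      rw [Finset.sum_mul]
      exact Finset.sum_congr rfl (fun l _ => mul_assoc _ _ _)
    rw [h0]
    by_cases hxN : x ∈ N
    · rw [if_pos hxN, (hker x).mpr hxN, dual_sum_one]
    · rw [if_neg hxN, dual_sum_ne (fun h => hxN ((hker x).mp h)), zero_mul]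
  have hL : ∀ l : Q →* ℂˣ, classInner (fun x => ((l (π x) : ℂˣ) : ℂ) * ϑ x) ϑ =
      (Nat.card Γ : ℂ)⁻¹ * ∑ x : Γ, ((l (π x) : ℂˣ) : ℂ) * ϑ x * starRingEnd ℂ (ϑ x) :=
    fun l => rfl
  have hsum : ∑ l : Q →* ℂˣ, classInner (fun x => ((l (π x) : ℂˣ) : ℂ) * ϑ x) ϑ =
      classInner (fun n : N => ϑ n) (fun n : N => ϑ n) := by
    have hsub : ∑ x ∈ Finset.univ.filter (fun x : Γ => x ∈ N), ϑ x * starRingEnd ℂ (ϑ x) =
        ∑ n : N, ϑ n * starRingEnd ℂ (ϑ n) :=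
      Finset.sum_subtype (Finset.univ.filter (fun x : Γ => x ∈ N)) (fun x => by simp)
        (fun x => ϑ x * starRingEnd ℂ (ϑ x))
    rw [Finset.sum_congr rfl (fun l _ => hL l), ← Finset.mul_sum, Finset.sum_comm,
      Finset.sum_congr rfl (fun x _ => hx x), Finset.sum_ite, Finset.sum_const_zero, add_zero,
      ← Finset.mul_sum, classInner_def', hsub]
    have hc : (Nat.card Γ : ℂ) = (Nat.card Q : ℂ) * (Nat.card N : ℂ) := by
      rw [← hcard]; push_cast; ring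
    have hQ0 : (Nat.card Q : ℂ) ≠ 0 := Nat.cast_ne_zero.mpr Nat.card_pos.ne'
    have hN0 : (Nat.card N : ℂ) ≠ 0 := Nat.cast_ne_zero.mpr Nat.card_pos.ne'
    rw [hc]
    field_simp
  have h1 : ∑ l : Q →* ℂˣ, classInner (fun x => ((l (π x) : ℂˣ) : ℂ) * ϑ x) ϑ = 1 := by
    rw [Finset.sum_eq_single (1 : Q →* ℂˣ)]
    · have h2 : (fun x => (((1 : Q →* ℂˣ) (π x) : ℂˣ) : ℂ) * ϑ x) = ϑ := by
        funext x
        simp
      rw [h2]
      exact irr_inner_self (⟨ϑ, hϑ⟩ : IrrCharacter Γ)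
    · intro l _ hl
      have hirr : IsIrrCharacter Γ (fun x => ((l (π x) : ℂˣ) : ℂ) * ϑ x) :=
        Cfsg.Agent.Helper5.isIrrCharacter_unitHom_mul (l.comp π) hϑ
      apply irr_inner_ne (χ := (⟨_, hirr⟩ : IrrCharacter Γ)) (ψ := ⟨ϑ, hϑ⟩)
      intro heq
      have heq' : (fun x => ((l (π x) : ℂˣ) : ℂ) * ϑ x) = ϑ := congrArg Subtype.val heq
      apply hl
      have hker' : Subgroup.closure ({x : Γ | ϑ x ≠ 0} ∪ (N : Set Γ)) ≤ (l.comp π).ker := by
        rw [Subgroup.closure_le]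
        intro x hx
        rw [SetLike.mem_coe, MonoidHom.mem_ker]
        rcases hx with hx | hx
        · have h5 : ((l (π x) : ℂˣ) : ℂ) * ϑ x = ϑ x := congrFun heq' x
          have h4 : (((l (π x) : ℂˣ) : ℂ) - 1) * ϑ x = 0 := by
            linear_combination h5
          have h3 : ((l (π x) : ℂˣ) : ℂ) = 1 := by
            rcases mul_eq_zero.mp h4 with h | h
            · exact sub_eq_zero.mp h
            · exact absurd h hx
          exact Units.ext h3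
        · show l (π x) = 1
          rw [(hker x).mpr hx, map_one]
      rw [hgen] at hker'
      apply MonoidHom.ext
      intro q
      obtain ⟨x, rfl⟩ := hπ q
      have h6 := hker' (Subgroup.mem_top x)
      rw [MonoidHom.mem_ker] at h6
      exact h6
    · intro h
      exact absurd (Finset.mem_univ _) h
  rw [← hsum]
  exact h1

omit [Fintype Γ] [Fintype N] in
theorem quot_comm (hab : ∀ x y : Γ, x * y * x⁻¹ * y⁻¹ ∈ N) (x y : Γ ⧸ N) : x * y = y * x := by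
  obtain ⟨x, rfl⟩ := QuotientGroup.mk_surjective x
  obtain ⟨y, rfl⟩ := QuotientGroup.mk_surjective y
  rw [← QuotientGroup.mk_mul, ← QuotientGroup.mk_mul, QuotientGroup.eq]
  have h := hab y⁻¹ x⁻¹
  simp only [mul_inv_rev, inv_inv, mul_assoc] at h ⊢
  exact h

/-- The commutative group structure on an abelian quotient. -/
noncomputable abbrev quotCommGroup (hab : ∀ x y : Γ, x * y * x⁻¹ * y⁻¹ ∈ N) :
    CommGroup (Γ ⧸ N) :=
  { (inferInstance : Group (Γ ⧸ N)) with mul_comm := quot_comm N hab }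

theorem vanish_or_norm_one (hϑ : IsIrrCharacter Γ ϑ) (hab : ∀ x y : Γ, x * y * x⁻¹ * y⁻¹ ∈ N)
    (A : Set (Γ ≃* Γ)) (hAN : ∀ a ∈ A, ∀ n ∈ N, a n ∈ N) (hAϑ : ∀ a ∈ A, ∀ x, ϑ (a x) = ϑ x)
    (hchief : ∀ M : Subgroup Γ, N ≤ M → (∀ a ∈ A, ∀ m ∈ M, a m ∈ M) → M = N ∨ M = ⊤) :
    (∀ x : Γ, x ∉ N → ϑ x = 0) ∨
      classInner (fun n : N => ϑ n) (fun n : N => ϑ n) = 1 := by
  classical
  have hWle : N ≤ Subgroup.closure ({x : Γ | ϑ x ≠ 0} ∪ (N : Set Γ)) :=
    fun n hn => Subgroup.subset_closure (Or.inr hn)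
  have hWinv : ∀ a ∈ A, ∀ m ∈ Subgroup.closure ({x : Γ | ϑ x ≠ 0} ∪ (N : Set Γ)),
      a m ∈ Subgroup.closure ({x : Γ | ϑ x ≠ 0} ∪ (N : Set Γ)) := by
    intro a ha m hm
    induction hm using Subgroup.closure_induction with
    | mem x hx =>
      apply Subgroup.subset_closure
      rcases hx with hx | hx
      · left
        show ϑ (a x) ≠ 0
        rw [hAϑ a ha]
        exact hx
      · right
        exact hAN a ha x hx
    | one => rw [map_one]; exact Subgroup.one_mem _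
    | mul x y _ _ hx hy => rw [map_mul]; exact Subgroup.mul_mem _ hx hy
    | inv x _ hx => rw [map_inv]; exact Subgroup.inv_mem _ hx
  rcases hchief _ hWle hWinv with hW | hW
  · left
    intro x hx
    by_contra h0
    apply hx
    rw [← hW]
    exact Subgroup.subset_closure (Or.inl h0)
  · right
    letI : CommGroup (Γ ⧸ N) := quotCommGroup N hab
    haveI : Finite ((Γ ⧸ N) →* ℂˣ) := by
      apply Nat.finite_of_card_ne_zero
      rw [CommGroup.card_monoidHom_of_hasEnoughRootsOfUnity (Γ ⧸ N) ℂ]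
      exact Nat.card_pos.ne'
    haveI : Fintype ((Γ ⧸ N) →* ℂˣ) := Fintype.ofFinite _
    refine norm_one_of_gen N ϑ (QuotientGroup.mk' N) (QuotientGroup.mk'_surjective N) ?_ ?_ hϑ hW
    · intro x
      exact QuotientGroup.eq_one_iff x
    · exact (Subgroup.card_eq_card_quotient_mul_card_subgroup N).symm

/-- **Going down through an abelian chief factor.** -/
theorem core (hϑ : IsIrrCharacter Γ ϑ) (hab : ∀ x y : Γ, x * y * x⁻¹ * y⁻¹ ∈ N)
    (A : Set (Γ ≃* Γ)) (hAN : ∀ a ∈ A, ∀ n ∈ N, a n ∈ N) (hAϑ : ∀ a ∈ A, ∀ x, ϑ (a x) = ϑ x)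
    (hchief : ∀ M : Subgroup Γ, N ≤ M → (∀ a ∈ A, ∀ m ∈ M, a m ∈ M) → M = N ∨ M = ⊤) :
    IsIrrCharacter N (fun n : N => ϑ n) ∨
    (∃ (φ : N → ℂ) (e : ℕ), IsIrrCharacter N φ ∧ (fun n : N => ϑ n) = (e : ℂ) • φ ∧
      e ^ 2 = N.index) ∨
    (∃ F : Finset (N → ℂ), (∀ φ ∈ F, IsIrrCharacter N φ) ∧ F.card = N.index ∧
      (fun n : N => ϑ n) = ∑ φ ∈ F, φ) := by
  classical
  have hres : IsCharacter N (fun n : N => ϑ n) :=
    isCharacter_restrict N (isCharacter_of_isIrrCharacter hϑ)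
  rcases vanish_or_norm_one N ϑ hϑ hab A hAN hAϑ hchief with hv | h1
  swap
  · exact Or.inl (isIrrCharacter_of_inner_self hres h1)
  right
  obtain ⟨R, hR0, hR, hRv⟩ := norm_split N ϑ hϑ
  rw [hRv hv, Complex.ofReal_zero, add_zero] at hR
  obtain ⟨φ, e, C, hφ, he, hC, hdec, hinner⟩ := clifford_finset N ϑ hϑ
  have hCirr : ∀ ψ ∈ C, IsIrrCharacter N ψ := by
    intro ψ hψ
    obtain ⟨g, rfl⟩ := (hC ψ).mp hψ
    exact isIrrCharacter_twist N φ hφ g
  have hNm : classInner (fun n : N => ϑ n) (fun n : N => ϑ n) =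
      ((e ^ 2 * C.card : ℕ) : ℂ) := by
    have h := norm_smul_sum e C hCirr
    rw [← hdec] at h
    exact h
  rw [hNm] at hR
  have hidx : Nat.card N * N.index = Nat.card Γ := Subgroup.card_mul_index N
  have hnat : Nat.card N * (e ^ 2 * C.card) = Nat.card Γ := by exact_mod_cast hR
  have hkey : e ^ 2 * C.card = N.index := by
    have h : Nat.card N * (e ^ 2 * C.card) = Nat.card N * N.index := by rw [hnat, hidx]
    exact Nat.eq_of_mul_eq_mul_left Nat.card_pos h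
  have hTle : N ≤ inertia N φ := le_inertia N φ hφ
  have hTinv : ∀ a ∈ A, ∀ m ∈ inertia N φ, a m ∈ inertia N φ := fun a ha m hm =>
    inertia_invariant N ϑ hab φ hφ e he C hC hdec hinner a (hAN a ha) (hAϑ a ha) m hm
  rcases hchief _ hTle hTinv with hT | hT
  · right
    have hcard := card_orbit N φ C hC hT
    have hCidx : C.card = N.index := by
      have h : C.card * Nat.card N = N.index * Nat.card N := by
        rw [hcard, mul_comm, hidx]
      exact Nat.eq_of_mul_eq_mul_right Nat.card_pos h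
    have he1 : e = 1 := by
      rw [hCidx] at hkey
      have hidx0 : 0 < N.index := Nat.pos_of_ne_zero Subgroup.index_ne_zero_of_finite
      have h : e ^ 2 * N.index = 1 * N.index := by rw [hkey, one_mul]
      have h2 : e ^ 2 = 1 := Nat.eq_of_mul_eq_mul_right hidx0 h
      rcases Nat.pow_eq_one.mp h2 with h3 | h3
      · exact h3
      · omega
    refine ⟨C, hCirr, hCidx, ?_⟩
    rw [hdec, he1, Nat.cast_one, one_smul]
  · left
    have hCeq : C = {φ} := by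
      ext ψ
      rw [hC, Finset.mem_singleton]
      constructor
      · rintro ⟨g, rfl⟩
        have h : g ∈ inertia N φ := by rw [hT]; exact Subgroup.mem_top g
        exact h
      · intro h
        exact ⟨1, by rw [h, twist_one]⟩
    rw [hCeq, Finset.card_singleton, mul_one] at hkey
    refine ⟨φ, e, hφ, ?_, hkey⟩
    rw [hdec, hCeq, Finset.sum_singleton]

end core

end Cfsg.Agent.Helper21.GoDown
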