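import Mathlib

/-!
Helper library (helper21): a finite abelian group of odd order admitting endomorphisms
`α, β` with `α² = β² = -1` and `αβ = -βα` (an action of the quaternion group in which the
central involution inverts) has square order.

* `card_sq_elem`: the elementary abelian case.
* `card_sq_add`: additive version.
* `card_sq_of_quat`: multiplicative version for an arbitrary finite group of odd order.
-/

set_option autoImplicit false

namespace Cfsg.Agent.Helper21

universe u

theorem card_sq_elem {M : Type*} [AddCommGroup M] [Finite M] (p : ℕ) [Fact p.Prime] (hp2 : p ≠ 2)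
    (hexp : ∀ x : M, p • x = 0) (α β : M →+ M) (hα : ∀ x, α (α x) = -x)
    (hβ : ∀ x, β (β x) = -x) (hαβ : ∀ x, α (β x) = -β (α x)) : IsSquare (Nat.card M) := by
  have hp : p.Prime := Fact.out
  obtain ⟨a, b, hab⟩ := ZMod.sq_add_sq p (-1)
  obtain ⟨a', ha'⟩ : ∃ a' : ℕ, a' = a.val := ⟨_, rfl⟩
  obtain ⟨b', hb'⟩ : ∃ b' : ℕ, b' = b.val := ⟨_, rfl⟩
  have hdiv : p ∣ a' ^ 2 + b' ^ 2 + 1 := by
    rw [← ZMod.natCast_eq_zero_iff]
    push_cast
    rw [ha', hb', ZMod.natCast_zmod_val, ZMod.natCast_zmod_val, hab]
    ring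
  have hkill : ∀ x : M, (a' ^ 2 + b' ^ 2 + 1) • x = 0 := by
    intro x
    obtain ⟨c, hc⟩ := hdiv
    rw [hc, mul_comm, mul_smul, hexp, smul_zero]
  obtain ⟨u, hu⟩ : ∃ u : M →+ M, ∀ x, u x = a' • α x + b' • β x :=
    ⟨a' • α + b' • β, fun x => rfl⟩
  have huu : ∀ x, u (u x) = x := by
    intro x
    have h1 := hkill x
    rw [hu, hu, map_add, map_add, map_nsmul, map_nsmul, map_nsmul, map_nsmul, hα, hβ, hαβ]
    have h2 : a' • (a' • -x + b' • -β (α x)) + b' • (a' • β (α x) + b' • -x) =
        -((a' ^ 2 + b' ^ 2) • x) := by module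
    rw [h2, neg_eq_iff_add_eq_zero]
    rw [add_smul, one_smul] at h1
    exact h1
  obtain ⟨k, hk⟩ : ∃ k : M →+ M, ∀ x, k x = α (β x) := ⟨α.comp β, fun x => rfl⟩
  have hkk : ∀ x, k (k x) = -x := by
    intro x
    have e3 : β (α (β x)) = α x := by rw [hαβ, map_neg, hβ, neg_neg]
    rw [hk, hk, e3, hα]
  have hkinj : Function.Injective k := by
    intro x y hxy
    have := congrArg k hxy
    rw [hkk, hkk] at this
    exact neg_injective this
  have hku : ∀ x, k (u x) = -u (k x) := by
    intro x
    rw [hu, hu, map_add, map_nsmul, map_nsmul, hk, hk, hk]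
    have e1 : α (β (α x)) = β x := by rw [hαβ, hα, map_neg, neg_neg]
    have e2 : α (β (β x)) = -α x := by rw [hβ, map_neg]
    have e3 : β (α (β x)) = α x := by rw [hαβ, map_neg, hβ, neg_neg]
    have e4 : α (α (β x)) = -β x := hα _
    rw [e1, e2, e3, e4]
    module
  obtain ⟨f, hf⟩ : ∃ f : M →+ M, ∀ x, f x = u x + x := ⟨u + AddMonoidHom.id M, fun x => rfl⟩
  have hker : ∀ x, x ∈ f.ker ↔ u x = -x := by
    intro x
    rw [AddMonoidHom.mem_ker, hf, add_eq_zero_iff_eq_neg]
  have hrange : ∀ y, y ∈ f.range ↔ u y = y := by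
    intro y
    constructor
    · rintro ⟨x, rfl⟩
      rw [hf, map_add, huu, add_comm]
    · intro hy
      obtain ⟨c, hc⟩ : ∃ c : ℕ, 2 * c = p + 1 := by
        rcases hp.eq_two_or_odd with h | h
        · exact absurd h hp2
        · exact ⟨(p + 1) / 2, by omega⟩
      refine ⟨c • y, ?_⟩
      rw [hf, map_nsmul, hy, ← two_nsmul, ← mul_smul, hc, add_smul, hexp, one_smul, zero_add]
  have hcard : Nat.card f.ker * Nat.card f.range = Nat.card M := by
    rw [← AddSubgroup.index_ker]
    exact AddSubgroup.card_mul_index f.ker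
  have h1 : Nat.card f.ker ≤ Nat.card f.range := by
    refine Nat.card_le_card_of_injective
      (fun x : f.ker => (⟨k x, ?_⟩ : f.range)) ?_
    · rw [hrange]
      have hx := (hker x).mp x.2
      have := hku x
      rw [hx, map_neg] at this
      exact (neg_injective this).symm
    · intro x y hxy
      have := congrArg Subtype.val hxy
      exact Subtype.ext (hkinj this)
  have h2 : Nat.card f.range ≤ Nat.card f.ker := by
    refine Nat.card_le_card_of_injective
      (fun x : f.range => (⟨k x, ?_⟩ : f.ker)) ?_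
    · rw [hker]
      have hx := (hrange x).mp x.2
      have := hku x
      rw [hx] at this
      exact neg_eq_iff_eq_neg.mp this.symm
    · intro x y hxy
      have := congrArg Subtype.val hxy
      exact Subtype.ext (hkinj this)
  rw [← hcard, le_antisymm h1 h2]
  exact ⟨_, rfl⟩

theorem card_sq_aux (n : ℕ) : ∀ (V : Type u) [AddCommGroup V] [Finite V] (α β : V →+ V),
    Odd (Nat.card V) → (∀ x, α (α x) = -x) → (∀ x, β (β x) = -x) →
    (∀ x, α (β x) = -β (α x)) → Nat.card V = n → IsSquare n := by
  induction n using Nat.strong_induction_on with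
  | _ n ih =>
    intro V _ _ α β hodd hα hβ hαβ hn
    by_cases h1 : n = 1
    · subst h1; exact ⟨1, rfl⟩
    obtain ⟨p, hp, hpn⟩ := Nat.exists_prime_and_dvd h1
    haveI : Fact p.Prime := ⟨hp⟩
    have hp2 : p ≠ 2 := by
      rintro rfl
      rw [← hn] at hpn
      exact (Nat.not_even_iff_odd.mpr hodd) (even_iff_two_dvd.mpr hpn)
    obtain ⟨f, hf⟩ : ∃ f : V →+ V, ∀ x, f x = p • x := ⟨nsmulAddMonoidHom p, fun x => rfl⟩
    have hcard : Nat.card f.ker * Nat.card f.range = Nat.card V := by
      rw [← AddSubgroup.index_ker]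
      exact AddSubgroup.card_mul_index f.ker
    -- restrictions to the kernel
    have hαk : ∀ x : f.ker, α x ∈ f.ker := by
      intro x
      have hx := x.2
      rw [AddMonoidHom.mem_ker, hf] at hx ⊢
      rw [← map_nsmul, hx, map_zero]
    have hβk : ∀ x : f.ker, β x ∈ f.ker := by
      intro x
      have hx := x.2
      rw [AddMonoidHom.mem_ker, hf] at hx ⊢
      rw [← map_nsmul, hx, map_zero]
    have hαr : ∀ x : f.range, α x ∈ f.range := by
      rintro ⟨_, y, rfl⟩
      exact ⟨α y, by show f (α y) = α (f y); rw [hf, hf, map_nsmul]⟩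
    have hβr : ∀ x : f.range, β x ∈ f.range := by
      rintro ⟨_, y, rfl⟩
      exact ⟨β y, by show f (β y) = β (f y); rw [hf, hf, map_nsmul]⟩
    have hsqk : IsSquare (Nat.card f.ker) := by
      refine card_sq_elem (M := f.ker) p hp2 ?_
        ((α.comp f.ker.subtype).codRestrict f.ker hαk)
        ((β.comp f.ker.subtype).codRestrict f.ker hβk) ?_ ?_ ?_
      · intro x
        apply Subtype.ext
        have hx := x.2
        rw [AddMonoidHom.mem_ker, hf] at hx
        simpa using hx
      · intro x
        apply Subtype.ext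
        exact hα x
      · intro x
        apply Subtype.ext
        exact hβ x
      · intro x
        apply Subtype.ext
        exact hαβ x
    have hkne : 1 < Nat.card f.ker := by
      rw [← hn] at hpn
      obtain ⟨x, hx⟩ := exists_prime_addOrderOf_dvd_card' p hpn
      have hx0 : x ≠ 0 := by
        intro h
        rw [h, addOrderOf_zero] at hx
        exact hp.one_lt.ne hx
      have hxk : x ∈ f.ker := by
        rw [AddMonoidHom.mem_ker, hf, ← hx]
        exact addOrderOf_nsmul_eq_zero x
      haveI : Nontrivial f.ker := ⟨⟨⟨x, hxk⟩, 0, fun h => hx0 (congrArg Subtype.val h)⟩⟩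
      exact Finite.one_lt_card
    have hrlt : Nat.card f.range < n := by
      rw [← hn, ← hcard]
      have : 0 < Nat.card f.range := Nat.card_pos
      nlinarith
    have hrodd : Odd (Nat.card f.range) := by
      rw [← hcard] at hodd
      exact (Nat.odd_mul.mp hodd).2
    have hsqr : IsSquare (Nat.card f.range) := by
      refine ih _ hrlt f.range
        ((α.comp f.range.subtype).codRestrict f.range hαr)
        ((β.comp f.range.subtype).codRestrict f.range hβr) hrodd ?_ ?_ ?_ rfl
      · intro x
        apply Subtype.ext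
        exact hα x
      · intro x
        apply Subtype.ext
        exact hβ x
      · intro x
        apply Subtype.ext
        exact hαβ x
    rw [← hn, ← hcard]
    exact hsqk.mul hsqr

theorem card_sq_add {V : Type*} [AddCommGroup V] [Finite V] (α β : V →+ V)
    (hodd : Odd (Nat.card V)) (hα : ∀ x, α (α x) = -x) (hβ : ∀ x, β (β x) = -x)
    (hαβ : ∀ x, α (β x) = -β (α x)) : IsSquare (Nat.card V) :=
  card_sq_aux _ V α β hodd hα hβ hαβ rfl

/-- multiplicative version: a finite group of odd order with endomorphisms `α, β` such that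
`α² = β² = ` inversion and `αβ = ` inversion `∘ βα` has square order. -/
theorem card_sq_of_quat {N : Type*} [Group N] [Finite N] (α β : N →* N)
    (hodd : Odd (Nat.card N)) (hα : ∀ x, α (α x) = x⁻¹) (hβ : ∀ x, β (β x) = x⁻¹)
    (hαβ : ∀ x, α (β x) = (β (α x))⁻¹) : IsSquare (Nat.card N) := by
  have hcomm : ∀ x y : N, x * y = y * x := by
    intro x y
    have h1 : (x * y)⁻¹ = x⁻¹ * y⁻¹ := by
      rw [← hα, map_mul, map_mul, hα, hα]
    rw [mul_inv_rev] at h1
    have h2 := congrArg (fun z => z⁻¹) h1
    simp only [mul_inv_rev, inv_inv] at h2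
    exact h2
  letI : CommGroup N := { (inferInstance : Group N) with mul_comm := hcomm }
  exact card_sq_add (V := Additive N) (MonoidHom.toAdditive α) (MonoidHom.toAdditive β) hodd
    (fun x => hα (Additive.toMul x)) (fun x => hβ (Additive.toMul x))
    (fun x => hαβ (Additive.toMul x))

end Cfsg.Agent.Helper21
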